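import Mathlib
import Cfsg.Agent.Lib.Helper81.FCZ.Defs

/-!
# Project FCZ, package [COMPL]

A subgroup of order not divisible by 4 has a subgroup of odd order and index at most 2.
-/

set_option autoImplicit false

namespace Cfsg.Agent.Lib.Helper22.FCZ

universe u

/-- a finite group of order not divisible by 4 has a subgroup of odd order and index at most 2. -/
theorem exists_odd_index_le_two (C : Type u) [Group C] [Finite C] (h4 : ¬ 4 ∣ Nat.card C) :
    ∃ K : Subgroup C, (Nat.card K).Coprime 2 ∧ K.index ≤ 2 := by
  classical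
  by_cases h2 : 2 ∣ Nat.card C
  · haveI : Fact (Nat.Prime 2) := ⟨Nat.prime_two⟩
    obtain ⟨S⟩ : Nonempty (Sylow 2 C) := inferInstance
    obtain ⟨k, hk⟩ := (S.isPGroup').exists_card_eq
    have hSdvd : Nat.card ↥(S : Subgroup C) ∣ Nat.card C := Subgroup.card_subgroup_dvd_card _
    have hSidx : ¬ 2 ∣ (S : Subgroup C).index := S.not_dvd_index
    have hmul : Nat.card ↥(S : Subgroup C) * (S : Subgroup C).index = Nat.card C :=
      Subgroup.card_mul_index _
    have hk1 : k = 1 := by
      rcases Nat.lt_or_ge k 2 with hlt | hge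
      · interval_cases k
        · exfalso
          rw [pow_zero] at hk
          rw [hk, one_mul] at hmul
          exact hSidx (hmul ▸ h2)
        · rfl
      · exfalso
        apply h4
        have : (2 : ℕ) ^ 2 ∣ 2 ^ k := pow_dvd_pow 2 hge
        exact dvd_trans (by simpa using this) (hk ▸ hSdvd)
    rw [hk1, pow_one] at hk
    haveI hcyc : IsCyclic ↥(S : Subgroup C) := isCyclic_of_prime_card hk
    have hmin : (Nat.card C).minFac = 2 := (Nat.minFac_eq_two_iff _).mpr h2
    have hN := IsCyclic.normalizer_le_centralizer hmin hcyc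
    have hcomp := MonoidHom.ker_transferSylow_isComplement' S hN
    have hcard := hcomp.card_mul_card
    rw [hk] at hcard
    refine ⟨(MonoidHom.transferSylow S hN).ker, ?_, ?_⟩
    · rw [Nat.coprime_comm, Nat.Prime.coprime_iff_not_dvd Nat.prime_two]
      intro hodd
      obtain ⟨m, hm⟩ := hodd
      apply h4
      rw [← hcard, hm]
      exact ⟨m, by ring⟩
    · have hidx := Subgroup.card_mul_index (MonoidHom.transferSylow S hN).ker
      have hpos : 0 < Nat.card ↥(MonoidHom.transferSylow S hN).ker := Nat.card_pos
      have : (MonoidHom.transferSylow S hN).ker.index = 2 := by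
        have h' : Nat.card ↥(MonoidHom.transferSylow S hN).ker *
            (MonoidHom.transferSylow S hN).ker.index =
            Nat.card ↥(MonoidHom.transferSylow S hN).ker * 2 := by
          rw [hidx, hcard]
        exact Nat.eq_of_mul_eq_mul_left hpos h'
      omega
  · refine ⟨⊤, ?_, ?_⟩
    · rw [Subgroup.card_top]
      exact ((Nat.Prime.coprime_iff_not_dvd Nat.prime_two).mpr h2).symm
    · rw [Subgroup.index_top]
      norm_num

/-- [COMPL] -/
theorem pkgCompl : Cfsg.Agent.Lib.Helper81.FCZ.PkgCompl.{u} := by
  intro G _ _ C h4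
  obtain ⟨K, hK, hidx⟩ := exists_odd_index_le_two ↥C h4
  refine ⟨K.map C.subtype, Subgroup.map_subtype_le K, ?_, ?_⟩
  · rwa [Nat.card_congr (K.equivMapOfInjective C.subtype C.subtype_injective).symm.toEquiv]
  · have : (K.map C.subtype).relIndex C = K.index := by
      rw [Subgroup.relIndex]
      congr 1
      ext x
      simp [Subgroup.mem_subgroupOf]
    rw [this]
    exact hidx

end Cfsg.Agent.Lib.Helper22.FCZ
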