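import Mathlib
import Cfsg.Agent.Lib.Helper81.FCZ.Defs
import Cfsg.Agent.S2119

/-!
# Project FCZ, package [PSI]

The action of `G` on `S / Z(S) = Alt(5)` for a normal perfect subgroup `S ≃ SL(2,5)`.
-/

set_option autoImplicit false

namespace Cfsg.Agent.Lib.Helper22.FCZ

universe u v

section Induced

variable {N : Type u} [Group N] {A : Type v} [Group A] (ρ : N →* A)

/-- automorphisms preserve the centre -/
theorem mulAut_mem_center (φ : MulAut N) {x : N} (hx : x ∈ Subgroup.center N) :
    φ x ∈ Subgroup.center N := by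
  rw [Subgroup.mem_center_iff] at hx ⊢
  intro t
  have h := hx (φ⁻¹ t)
  have h2 := congrArg φ h
  simpa using h2

/-- the endomorphism of `A` induced by an automorphism of `N`. -/
noncomputable def indHom (hρ : Function.Surjective ρ) (hker : ρ.ker = Subgroup.center N)
    (φ : MulAut N) : A →* A :=
  ρ.liftOfSurjective hρ ⟨ρ.comp φ.toMonoidHom, by
    intro x hx
    rw [hker] at hx
    rw [MonoidHom.mem_ker, MonoidHom.comp_apply, ← MonoidHom.mem_ker, hker]
    exact mulAut_mem_center φ hx⟩

theorem indHom_apply (hρ : Function.Surjective ρ) (hker : ρ.ker = Subgroup.center N)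
    (φ : MulAut N) (s : N) : indHom ρ hρ hker φ (ρ s) = ρ (φ s) := by
  unfold indHom
  exact MonoidHom.liftOfRightInverse_comp_apply _ _ _ _ _

/-- the automorphism of `A` induced by an automorphism of `N`. -/
noncomputable def indAut (hρ : Function.Surjective ρ) (hker : ρ.ker = Subgroup.center N)
    (φ : MulAut N) : MulAut A where
  toFun := indHom ρ hρ hker φ
  invFun := indHom ρ hρ hker φ⁻¹
  left_inv := by
    intro a
    obtain ⟨s, rfl⟩ := hρ a
    rw [indHom_apply, indHom_apply]
    simp
  right_inv := by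
    intro a
    obtain ⟨s, rfl⟩ := hρ a
    rw [indHom_apply, indHom_apply]
    simp
  map_mul' := map_mul _

theorem indAut_apply (hρ : Function.Surjective ρ) (hker : ρ.ker = Subgroup.center N)
    (φ : MulAut N) (s : N) : indAut ρ hρ hker φ (ρ s) = ρ (φ s) :=
  indHom_apply ρ hρ hker φ s

/-- `indAut` as a homomorphism. -/
noncomputable def indAutHom (hρ : Function.Surjective ρ) (hker : ρ.ker = Subgroup.center N) :
    MulAut N →* MulAut A :=
  MonoidHom.mk' (indAut ρ hρ hker) (by
    intro φ ψ
    apply MulEquiv.ext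
    intro a
    obtain ⟨s, rfl⟩ := hρ a
    rw [MulAut.mul_apply, indAut_apply, indAut_apply, indAut_apply, MulAut.mul_apply])

theorem indAutHom_apply (hρ : Function.Surjective ρ) (hker : ρ.ker = Subgroup.center N)
    (φ : MulAut N) (s : N) : indAutHom ρ hρ hker φ (ρ s) = ρ (φ s) :=
  indHom_apply ρ hρ hker φ s

end Induced

/-- a homomorphism from a perfect group to a commutative group is trivial. -/
theorem hom_trivial_of_perfect {N : Type u} [Group N] {C : Type v} [Group C]
    (hC : ∀ a b : C, a * b = b * a)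
    (hN : commutator N = ⊤) (f : N →* C) (x : N) : f x = 1 := by
  letI : CommGroup C := { ‹Group C› with mul_comm := hC }
  have h := Abelianization.commutator_subset_ker f
  rw [hN] at h
  exact h (Subgroup.mem_top x)

open Cfsg.Agent.Lib.Helper81.FCZ in
/-- [PSI] -/
theorem pkgPsi : Cfsg.Agent.Lib.Helper81.FCZ.PkgPsi.{u} := by
  rintro ⟨π, hπ, hπker⟩ G _ _ S hSn hperf ⟨e⟩
  -- the surjection `ρ : S → Alt(5)` with kernel `Z(S)`
  let ρ : ↥S →* ↥(alternatingGroup (Fin 5)) := π.comp e.toMonoidHom
  have hρ : Function.Surjective ρ := hπ.comp e.surjective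
  have hker : ρ.ker = Subgroup.center ↥S := by
    ext x
    rw [MonoidHom.mem_ker]
    show π (e x) = 1 ↔ _
    rw [← MonoidHom.mem_ker, hπker, Subgroup.mem_center_iff, Subgroup.mem_center_iff]
    constructor
    · intro h t
      have := h (e t)
      rw [← map_mul, ← map_mul] at this
      exact e.injective this
    · intro h y
      obtain ⟨t, rfl⟩ := e.surjective y
      rw [← map_mul, ← map_mul, h t]
  -- the action of `G` on `Alt(5)`
  let α : G →* MulAut ↥(alternatingGroup (Fin 5)) :=
    (indAutHom ρ hρ hker).comp (MulAut.conjNormal : G →* MulAut ↥S)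
  have hα : ∀ (g : G) (s : ↥S), α g (ρ s) = ρ (MulAut.conjNormal g s) := fun g s =>
    indAutHom_apply ρ hρ hker _ s
  let Θ : Equiv.Perm (Fin 5) ≃* MulAut ↥(alternatingGroup (Fin 5)) :=
    MulEquiv.ofBijective MulAut.conjNormal (Cfsg.Agent.S2119.result 5 (by norm_num) (by norm_num))
  have hΘ : ∀ x : Equiv.Perm (Fin 5), Θ x = MulAut.conjNormal x := fun x => rfl
  refine ⟨Θ.symm.toMonoidHom.comp α, ?_, ?_⟩
  · -- the kernel
    ext g
    rw [MonoidHom.mem_ker, MonoidHom.comp_apply]
    show Θ.symm (α g) = 1 ↔ _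
    rw [MulEquiv.symm_apply_eq, map_one, Subgroup.mem_centralizer_iff]
    constructor
    · intro h1
      -- `s ↦ s⁻¹ * g s g⁻¹` is a homomorphism `S → Z(S)`
      have hz : ∀ s : ↥S, s⁻¹ * MulAut.conjNormal g s ∈ Subgroup.center ↥S := by
        intro s
        rw [← hker, MonoidHom.mem_ker, map_mul, map_inv, ← hα, h1]
        simp
      let z : ↥S →* ↥(Subgroup.center ↥S) :=
        MonoidHom.mk' (fun s => ⟨s⁻¹ * MulAut.conjNormal g s, hz s⟩) (by
          intro s t
          apply Subtype.ext
          show (s * t)⁻¹ * MulAut.conjNormal g (s * t) =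
            (s⁻¹ * MulAut.conjNormal g s) * (t⁻¹ * MulAut.conjNormal g t)
          have hc := (Subgroup.mem_center_iff.mp (hz s)) t⁻¹
          rw [map_mul, mul_inv_rev, mul_assoc, ← mul_assoc s⁻¹, ← mul_assoc t⁻¹, hc]
          group)
      intro s hs
      have h2 := hom_trivial_of_perfect (fun a b => Subtype.ext (Subgroup.mem_center_iff.mp b.2 a.1)) hperf z ⟨s, hs⟩
      have h3 : (⟨s, hs⟩ : ↥S)⁻¹ * MulAut.conjNormal g ⟨s, hs⟩ = 1 := by
        have := congrArg (Subtype.val) h2
        exact this
      have h4 : MulAut.conjNormal g (⟨s, hs⟩ : ↥S) = ⟨s, hs⟩ := by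
        rw [inv_mul_eq_one] at h3
        exact h3.symm
      have h5 := congrArg (Subtype.val) h4
      rw [MulAut.conjNormal_apply] at h5
      have h6 : g * s * g⁻¹ = s := h5
      calc s * g = (g * s * g⁻¹) * g := by rw [h6]
        _ = g * s := by group
    · intro h
      apply MulEquiv.ext
      intro a
      obtain ⟨s, rfl⟩ := hρ a
      rw [hα]
      have : MulAut.conjNormal g s = s := by
        apply Subtype.ext
        rw [MulAut.conjNormal_apply]
        have := h s s.2
        calc g * ↑s * g⁻¹ = (↑s * g) * g⁻¹ := by rw [this]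
          _ = ↑s := by group
      rw [this]
      rfl
  · -- the image of `S`
    have hψ : ∀ s : ↥S, Θ.symm (α (s : G)) = ((ρ s : ↥(alternatingGroup (Fin 5))) :
        Equiv.Perm (Fin 5)) := by
      intro s
      rw [MulEquiv.symm_apply_eq, hΘ]
      apply MulEquiv.ext
      intro a
      obtain ⟨t, rfl⟩ := hρ a
      rw [hα]
      apply Subtype.ext
      rw [MulAut.conjNormal_apply]
      have : MulAut.conjNormal (s : G) t = s * t * s⁻¹ := by
        apply Subtype.ext
        rw [MulAut.conjNormal_apply]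
        rfl
      rw [this, map_mul, map_mul, map_inv]
      rfl
    ext x
    rw [Subgroup.mem_map]
    constructor
    · rintro ⟨s, hs, rfl⟩
      have := hψ ⟨s, hs⟩
      show Θ.symm (α s) ∈ _
      rw [this]
      exact (ρ ⟨s, hs⟩).2
    · intro hx
      obtain ⟨s, hs⟩ := hρ ⟨x, hx⟩
      refine ⟨s, s.2, ?_⟩
      show Θ.symm (α (s : G)) = x
      rw [hψ s, hs]

end Cfsg.Agent.Lib.Helper22.FCZ
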